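import Cfsg.Agent.H66.Cod.Defs
import Cfsg.Agent.H462.Cod.AltElim
import Cfsg.Agent.H672.SporIM.Tools
import Cfsg.Agent.S1619
import Cfsg.Agent.S1624
import Cfsg.Agent.S4198
import Cfsg.Agent.S0133

/-!
# Degrees of alternating groups and of `J2` (helper705, task 2013)
-/

set_option autoImplicit false

namespace Cfsg.Agent.H705.CodAltDeg

open Cfsg Cfsg.Agent.H66.Cod Cfsg.Agent.H686.CharKit
open Cfsg.Agent.H704 (IsDeg)

theorem isDeg_seven : IsDeg 7 35 := ⟨[4, 2, 1], ⟨by decide, by decide, by decide⟩, by decide +kernel⟩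

theorem isDeg_ten : IsDeg 10 768 := ⟨[4, 3, 2, 1], ⟨by decide, by decide, by decide⟩, by decide +kernel⟩

theorem alt_seven : ∃ d, NDeg ↥(alternatingGroup (Fin 7)) d ∧ 18 ≤ d := by
  obtain ⟨d, h1, h2⟩ := H462.Cod.exists_adeg_of_isDeg (by norm_num) (by norm_num) isDeg_seven
  exact ⟨d, h1, by omega⟩

theorem alt_ten : ∃ d, NDeg ↥(alternatingGroup (Fin 10)) d ∧ 59 ≤ d := by
  obtain ⟨d, h1, h2⟩ := H462.Cod.exists_adeg_of_isDeg (by norm_num) (by norm_num) isDeg_ten
  exact ⟨d, h1, by omega⟩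

open Cfsg.Agent.H672.SporIM Cfsg.Agent.H690.Spor.RankThree in
theorem j2_deg {S : Type*} [Group S] [Finite S] [IsSimpleGroup S] (h : Spor.IsoJ2 S) : ∃ d, NDeg S d ∧ 20 ≤ d := by
  have hc : Nat.card Spor.J2 = 604800 := Cfsg.Agent.S1619.result.2.2.2
  have : Finite Spor.J2 := Nat.finite_of_card_ne_zero (by rw [hc]; norm_num)
  obtain ⟨e⟩ := h
  obtain ⟨H, h1, -, q₁, q₂, h2, h3⟩ := Cfsg.Agent.S1624.result
  obtain ⟨R, hR⟩ := R3.of_index H (k := 36) (l := 63) h1 h2 h3 (by norm_num) (by norm_num) (by norm_num)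
  obtain ⟨x, hx, hd⟩ := degrees_of_R3 hR hc rfl (P := 226800) (by norm_num) [(2, 2), (3, 2), (5, 1)] [7]
    (by simp only [List.forall_mem_cons]; norm_num)
    (by simp only [List.forall_mem_cons]; norm_num) (by decide) (by norm_num) (Or.inl (by decide)) [(63, 36)]
    (by decide +kernel)
  rw [List.mem_singleton] at hx
  subst hx
  obtain ⟨χ, hχ⟩ := hd.1.of_equiv e
  refine ⟨63, ⟨χ, ?_, hχ⟩, by norm_num⟩
  intro h1
  have h2 := charDegree_irr χ
  rw [hχ, h1] at h2
  norm_num at h2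

theorem hfac (m : ℕ) (hm : 5 ≤ m) : 2 * 2 ^ m ≤ m.factorial := by
  induction m, hm using Nat.le_induction with
  | base => decide
  | succ m hm ih =>
    rw [Nat.factorial_succ, pow_succ]
    calc 2 * (2 ^ m * 2) = 2 * (2 * 2 ^ m) := by ring
      _ ≤ (m + 1) * m.factorial := Nat.mul_le_mul (by omega) ih

theorem alt_class {m : ℕ} (hm : 5 ≤ m) :
    ∃ d, NDeg ↥(alternatingGroup (Fin m)) d ∧ m.factorial ≤ 2 * (2 ^ m * d ^ 2) := by
  classical
  by_contra hcon
  push Not at hcon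
  have hk := Cfsg.Agent.S0133.result (G := ↥(alternatingGroup (Fin m)))
  have h1 := Cfsg.Agent.S4198.result m hm
  have hfin : Finite (IrrCharacter ↥(alternatingGroup (Fin m))) := by
    apply Nat.finite_of_card_ne_zero
    rw [hk]
    exact Nat.card_pos.ne'
  have := Fintype.ofFinite (IrrCharacter ↥(alternatingGroup (Fin m)))
  have hsum := sum_deg_sq (G := ↥(alternatingGroup (Fin m)))
  have hcard : 2 * Nat.card ↥(alternatingGroup (Fin m)) = m.factorial := by
    have : Nontrivial (Fin m) := Fin.nontrivial_iff_two_le.2 (by omega)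
    rw [two_mul_nat_card_alternatingGroup, Nat.card_eq_fintype_card, Fintype.card_perm, Fintype.card_fin]
  -- every degree `d` satisfies `2 ^ (m + 1) * d ^ 2 < m !`
  have hall : ∀ χ : IrrCharacter ↥(alternatingGroup (Fin m)),
      2 * 2 ^ m * charDegree (χ : ↥(alternatingGroup (Fin m)) → ℂ) ^ 2 ≤ m.factorial := by
    intro χ
    by_cases h : (χ : ↥(alternatingGroup (Fin m)) → ℂ) = 1
    · have h2 := charDegree_irr χ
      rw [h] at h2 ⊢
      have h3 : charDegree (1 : ↥(alternatingGroup (Fin m)) → ℂ) = 1 := by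
        have : ((1 : ↥(alternatingGroup (Fin m)) → ℂ)) 1 = 1 := rfl
        rw [this] at h2
        exact_mod_cast h2
      rw [h3, one_pow, mul_one]
      exact hfac m hm
    · have := hcon _ ⟨χ, h, rfl⟩
      rw [mul_assoc]
      exact this.le
  have h2 : 2 * 2 ^ m * Nat.card ↥(alternatingGroup (Fin m)) ≤
      Nat.card (IrrCharacter ↥(alternatingGroup (Fin m))) * m.factorial := by
    rw [← hsum, Finset.mul_sum, Nat.card_eq_fintype_card, ← Finset.card_univ, ← smul_eq_mul (Finset.card _),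
      ← Finset.sum_const]
    exact Finset.sum_le_sum fun χ _ => hall χ
  have h3 : 2 * 2 ^ m * Nat.card ↥(alternatingGroup (Fin m)) = 2 ^ m * m.factorial := by
    rw [← hcard]; ring
  rw [h3, hk] at h2
  have h4 := Nat.le_of_mul_le_mul_right h2 (Nat.factorial_pos m)
  have h5 : 2 ^ (m - 2) < 2 ^ m := Nat.pow_lt_pow_right (by norm_num) (by omega)
  omega

end Cfsg.Agent.H705.CodAltDeg
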